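import Cfsg.Agent.Lib.Helper11.WE8a.K0

set_option autoImplicit false
set_option maxRecDepth 100000

namespace Cfsg.Agent.Lib.Helper11.WE8a

theorem chkAll : ∀ j < 12, blk fc sc rt.get INV isH j = true :=
  guardB_spec (D := 4) b0 (by norm_num)

theorem clAll : ∀ jb < 8, cblk fc nc cc (256 * 12) 240 39402006196394479212279040100143613805079739270465446667948293404245721771497210611414266254884915640806627990306816 gens jb = true :=
  guardB_spec (D := 3) c0 (by norm_num)

theorem hN0 : getN nc 0 = 0 := by decide +kernel


end Cfsg.Agent.Lib.Helper11.WE8a
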